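import Mathlib
import Cfsg.Agent.Lib.CoprimeHyperplane

/-!
# Groups of order dividing 175560

If a finite group `G` has order dividing 175560 = 2³·3·5·7·11·19 and divisible by 19 and no composition factor which
is a non-abelian simple group of order divisible by 19, then the Sylow 19-subgroup is normal.
-/

set_option autoImplicit false

namespace Cfsg.Agent.H555.NineteenNormal

open Subgroup

universe u

/-- An element of order `p` which normalizes a subgroup with fewer than `p` elements centralizes it. -/
theorem commute_of_card_lt {G : Type*} [Group G] {p : ℕ} (hp : p.Prime) {g : G} (hg : g ^ p = 1) (R : Subgroup G)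
    [Finite R] (hR : Nat.card R < p) (hn : g ∈ normalizer (R : Set G)) : ∀ r ∈ R, g * r * g⁻¹ = r := by
  have hpf : Fact p.Prime := ⟨hp⟩
  have hconj : ∀ r : R, g * r * g⁻¹ ∈ R := fun r => (Subgroup.mem_normalizer_iff.1 hn r).1 r.2
  have hconj' : ∀ r : R, g⁻¹ * r * g ∈ R := fun r => by
    have h1 : g⁻¹ ∈ normalizer (R : Set G) := inv_mem hn
    have := (Subgroup.mem_normalizer_iff.1 h1 r).1 r.2
    simpa using this
  let σ : Equiv.Perm R :=
    { toFun := fun r => ⟨g * r * g⁻¹, hconj r⟩
      invFun := fun r => ⟨g⁻¹ * r * g, hconj' r⟩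
      left_inv := fun r => by ext; simp [mul_assoc]
      right_inv := fun r => by ext; simp [mul_assoc] }
  have hpow : ∀ (n : ℕ) (r : R), (((σ ^ n) r : R) : G) = g ^ n * r * (g ^ n)⁻¹ := by
    intro n
    induction n with
    | zero => intro r; simp
    | succ n ih =>
      intro r
      rw [pow_succ', Equiv.Perm.mul_apply]
      change g * ((σ ^ n) r : R) * g⁻¹ = _
      rw [ih, pow_succ']
      group
  have h1 : σ ^ p = 1 := by
    ext r
    rw [hpow, hg]
    simp
  have h2 : σ = 1 := by
    by_contra hne
    have h3 : orderOf σ = p := orderOf_eq_prime h1 hne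
    have h4 : orderOf σ ∣ Nat.card (Equiv.Perm R) := orderOf_dvd_natCard σ
    rw [h3, Nat.card_perm, hp.dvd_factorial] at h4
    omega
  intro r hr
  have h3 := congrArg (fun τ : Equiv.Perm R => ((τ ⟨r, hr⟩ : R) : G)) h2
  exact h3

/-- An element of order `p` acting on a group of order prime to `p` whose Sylow subgroups all have fewer than `p`
elements acts trivially. -/
theorem commute_of_sylow_lt {G : Type*} [Group G] [Finite G] {p : ℕ} (hp : p.Prime) {g : G} (hg : g ^ p = 1)
    (K : Subgroup G) [K.Normal] (hK : ¬ p ∣ Nat.card K)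
    (hS : ∀ (q : ℕ) [Fact q.Prime] (R : Sylow q K), Nat.card (R : Subgroup K) < p) :
    ∀ k ∈ K, g * k = k * g := by
  have hpf : Fact p.Prime := ⟨hp⟩
  have hz : IsPGroup p (Subgroup.zpowers g) := by
    intro x
    refine ⟨1, ?_⟩
    obtain ⟨k, hk⟩ := Subgroup.mem_zpowers_iff.1 x.2
    apply Subtype.ext
    rw [Subgroup.coe_pow, ← hk, pow_one, ← zpow_natCast, ← zpow_mul, mul_comm, zpow_mul, zpow_natCast, hg,
      one_zpow]
    rfl
  -- the centralizer of `g` in `K` contains a Sylow subgroup for each prime
  have key : (Subgroup.centralizer ({g} : Set G)).subgroupOf K = ⊤ := by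
    have hidx : ((Subgroup.centralizer ({g} : Set G)).subgroupOf K).index = 1 := by
      by_contra hne
      obtain ⟨q, hq, hqd⟩ := Nat.exists_prime_and_dvd hne
      have hqf : Fact q.Prime := ⟨hq⟩
      obtain ⟨R, hR⟩ := Cfsg.Agent.Lib.CoprimeHyperplane.exists_invariant_sylow hz
        (Q := K) (by rw [Subgroup.normalizer_eq_top]; exact le_top) hK q
      have h1 : (R : Subgroup K) ≤ (Subgroup.centralizer ({g} : Set G)).subgroupOf K := by
        intro x hx
        rw [Subgroup.mem_subgroupOf, Subgroup.mem_centralizer_singleton_iff]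
        have hcard : Nat.card ((R : Subgroup K).map K.subtype) < p := by
          rw [← Nat.card_congr ((R : Subgroup K).equivMapOfInjective K.subtype K.subtype_injective).toEquiv]
          exact hS q R
        have h2 := commute_of_card_lt hp hg ((R : Subgroup K).map K.subtype) hcard
          (hR (Subgroup.mem_zpowers g)) x ⟨x, hx, rfl⟩
        exact (mul_inv_eq_iff_eq_mul.1 h2).symm
      exact R.not_dvd_index (hqd.trans (Subgroup.index_dvd_of_le h1))
    exact Subgroup.index_eq_one.1 hidx
  intro k hk
  have h1 : (⟨k, hk⟩ : K) ∈ (Subgroup.centralizer ({g} : Set G)).subgroupOf K := by rw [key]; trivial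
  rw [Subgroup.mem_subgroupOf, Subgroup.mem_centralizer_singleton_iff] at h1
  exact h1.symm

/-- A nontrivial finite group has a simple quotient. -/
theorem exists_simple_quotient (X : Type*) [Group X] [Finite X] [Nontrivial X] :
    ∃ K : Subgroup X, ∃ _ : K.Normal, K ≠ ⊤ ∧ IsSimpleGroup (X ⧸ K) := by
  obtain ⟨K, ⟨hK, hKt⟩, hmax⟩ := Set.Finite.exists_maximal (s := {K : Subgroup X | K.Normal ∧ K ≠ ⊤})
    (Set.toFinite _) ⟨⊥, inferInstance, bot_ne_top⟩
  refine ⟨K, hK, hKt, ?_⟩
  have hnt : Nontrivial (X ⧸ K) := QuotientGroup.nontrivial_iff.2 hKt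
  refine ⟨fun N hN => ?_⟩
  by_cases h : N.comap (QuotientGroup.mk' K) = ⊤
  · right
    rw [← Subgroup.map_comap_eq_self_of_surjective (QuotientGroup.mk'_surjective K) N, h,
      ← MonoidHom.range_eq_map, MonoidHom.range_eq_top.2 (QuotientGroup.mk'_surjective _)]
  · left
    have h1 : K ≤ N.comap (QuotientGroup.mk' K) := by
      intro x hx
      rw [Subgroup.mem_comap]
      have : QuotientGroup.mk' K x = 1 := (QuotientGroup.eq_one_iff x).2 hx
      rw [this]
      exact one_mem N
    have h2 := hmax (y := N.comap (QuotientGroup.mk' K)) ⟨hN.comap _, h⟩ h1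
    rw [← Subgroup.map_comap_eq_self_of_surjective (QuotientGroup.mk'_surjective K) N, eq_bot_iff]
    refine (Subgroup.map_mono h2).trans ?_
    rw [QuotientGroup.map_mk'_self]

/-- The fact on simple groups which is needed. -/
def Simp : Prop :=
  ∀ (S : Type u) [Group S] [Finite S] [IsSimpleGroup S], ¬ IsMulCommutative S → Nat.card S ∣ 175560 →
    19 ∣ Nat.card S → Nat.card S = 175560

theorem card_sylow_lt {K : Type*} [Group K] [Finite K] (hd : Nat.card K ∣ 175560) (h19 : ¬ 19 ∣ Nat.card K)
    (q : ℕ) [hq : Fact q.Prime] (R : Sylow q K) : Nat.card (R : Subgroup K) < 19 := by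
  have h1 : Nat.card (R : Subgroup K) ∣ 9240 := by
    have h2 : Nat.card (R : Subgroup K) ∣ 19 * 9240 :=
      ((R : Subgroup K).card_subgroup_dvd_card.trans hd).trans (by norm_num)
    refine Nat.Coprime.dvd_of_dvd_mul_left ?_ h2
    rw [Nat.coprime_comm, Nat.Prime.coprime_iff_not_dvd (by norm_num)]
    exact fun h => h19 (h.trans (R : Subgroup K).card_subgroup_dvd_card)
  obtain ⟨n, hn⟩ := IsPGroup.iff_card.1 R.isPGroup'
  rw [hn] at h1 ⊢
  rcases Nat.eq_zero_or_pos n with h0 | h0
  · rw [h0]; norm_num
  have hq2 : q ∣ 9240 := (dvd_pow_self q h0.ne').trans h1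
  have hq3 : q ∈ Nat.primeFactors 9240 := Nat.mem_primeFactors.2 ⟨hq.out, hq2, by norm_num⟩
  have hpf : Nat.primeFactors 9240 = {2, 3, 5, 7, 11} := by
    rw [show 9240 = 2 ^ 3 * (3 * (5 * (7 * 11))) by norm_num]
    rw [Nat.primeFactors_mul (by norm_num) (by norm_num), Nat.primeFactors_prime_pow (by norm_num) (by norm_num),
      Nat.primeFactors_mul (by norm_num) (by norm_num), Nat.Prime.primeFactors (by norm_num),
      Nat.primeFactors_mul (by norm_num) (by norm_num), Nat.Prime.primeFactors (by norm_num),
      Nat.primeFactors_mul (by norm_num) (by norm_num), Nat.Prime.primeFactors (by norm_num),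
      Nat.Prime.primeFactors (by norm_num)]
    rfl
  rw [hpf] at hq3
  simp only [Finset.mem_insert, Finset.mem_singleton] at hq3
  rcases hq3 with rfl | rfl | rfl | rfl | rfl
  · have h3 : n ≤ 3 := by
      by_contra h4
      have h5 : 2 ^ 4 ∣ 9240 := (Nat.pow_dvd_pow 2 (by omega)).trans h1
      revert h5
      norm_num
    calc 2 ^ n ≤ 2 ^ 3 := Nat.pow_le_pow_right (by norm_num) h3
      _ < 19 := by norm_num
  · have h3 : n ≤ 1 := by
      by_contra h4
      have h5 : 3 ^ 2 ∣ 9240 := (Nat.pow_dvd_pow 3 (by omega)).trans h1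
      revert h5
      norm_num
    calc 3 ^ n ≤ 3 ^ 1 := Nat.pow_le_pow_right (by norm_num) h3
      _ < 19 := by norm_num
  · have h3 : n ≤ 1 := by
      by_contra h4
      have h5 : 5 ^ 2 ∣ 9240 := (Nat.pow_dvd_pow 5 (by omega)).trans h1
      revert h5
      norm_num
    calc 5 ^ n ≤ 5 ^ 1 := Nat.pow_le_pow_right (by norm_num) h3
      _ < 19 := by norm_num
  · have h3 : n ≤ 1 := by
      by_contra h4
      have h5 : 7 ^ 2 ∣ 9240 := (Nat.pow_dvd_pow 7 (by omega)).trans h1
      revert h5
      norm_num
    calc 7 ^ n ≤ 7 ^ 1 := Nat.pow_le_pow_right (by norm_num) h3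
      _ < 19 := by norm_num
  · have h3 : n ≤ 1 := by
      by_contra h4
      have h5 : 11 ^ 2 ∣ 9240 := (Nat.pow_dvd_pow 11 (by omega)).trans h1
      revert h5
      norm_num
    calc 11 ^ n ≤ 11 ^ 1 := Nat.pow_le_pow_right (by norm_num) h3
      _ < 19 := by norm_num

/-- **The induction.** -/
theorem main (hS : Simp.{u}) : ∀ (n : ℕ) (X : Type u) [Group X] [Finite X], Nat.card X = n → n ∣ 175560 → 19 ∣ n →
    (IsSimpleGroup X → n ≠ 175560) → ∀ P : Sylow 19 X, (P : Subgroup X).Normal := by
  have h19 : Fact (Nat.Prime 19) := ⟨by norm_num⟩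
  intro n
  induction n using Nat.strong_induction_on with
  | _ n ih =>
    intro X _ _ hX hn1 hn2 hn3 P
    have hnt : Nontrivial X := by
      rw [← Finite.one_lt_card_iff_nontrivial, hX]
      have : n ≠ 0 := by rw [← hX]; exact Nat.card_pos.ne'
      obtain ⟨k, rfl⟩ := hn2
      omega
    by_cases hs : IsSimpleGroup X
    · by_cases hc : IsMulCommutative X
      · refine ⟨fun a ha b => ?_⟩
        rw [hc.is_comm.comm b a, mul_inv_cancel_right]
        exact ha
      · exfalso
        exact hn3 hs (by rw [← hX]; exact hS X hc (by rw [hX]; exact hn1) (by rw [hX]; exact hn2))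
    · obtain ⟨K, hK, hKt, hKs⟩ := exists_simple_quotient X
      have hKb : K ≠ ⊥ := by
        rintro rfl
        apply hs
        exact IsSimpleGroup.isSimpleGroup_of_surjective (QuotientGroup.quotientBot (G := X)).toMonoidHom
          (QuotientGroup.quotientBot (G := X)).surjective
      have hcard : Nat.card X = Nat.card (X ⧸ K) * Nat.card K := Subgroup.card_eq_card_quotient_mul_card_subgroup K
      have hK1 : 1 < Nat.card K := by
        rw [Finite.one_lt_card_iff_nontrivial, Subgroup.nontrivial_iff_ne_bot]
        exact hKb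
      have hQ1 : 1 < Nat.card (X ⧸ K) := by
        rw [Finite.one_lt_card_iff_nontrivial]
        infer_instance
      by_cases hd : 19 ∣ Nat.card (X ⧸ K)
      · -- `X / K` has order 19
        have h361 : ¬ 19 * 19 ∣ n := fun h => by
          have := h.trans hn1
          revert this
          norm_num
        have hKd : ¬ 19 ∣ Nat.card K := fun h => h361 (by rw [← hX, hcard]; exact Nat.mul_dvd_mul hd h)
        have hKdvd : Nat.card K ∣ 175560 := (Dvd.intro_left _ hcard.symm).trans (hX ▸ hn1)
        have hQdvd : Nat.card (X ⧸ K) ∣ 175560 := (Dvd.intro _ hcard.symm).trans (hX ▸ hn1)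
        have hQc : IsMulCommutative (X ⧸ K) := by
          by_contra hc
          have h1 := hS (X ⧸ K) hc hQdvd hd
          have h2 : n ≤ 175560 := Nat.le_of_dvd (by norm_num) hn1
          rw [hX, h1] at hcard
          omega
        have hQ19 : Nat.card (X ⧸ K) = 19 := by
          let _ : CommGroup (X ⧸ K) := { (inferInstance : Group (X ⧸ K)) with mul_comm := hQc.is_comm.comm }
          have hp : (Nat.card (X ⧸ K)).Prime := IsSimpleGroup.prime_card
          exact ((Nat.prime_dvd_prime_iff_eq (by norm_num) hp).1 hd).symm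
        -- `P` centralizes `K`
        have hPcard : Nat.card (P : Subgroup X) = 19 := by
          obtain ⟨k, hk⟩ := IsPGroup.iff_card.1 P.isPGroup'
          have h1 : 19 ^ k ∣ n := by rw [← hk, ← hX]; exact (P : Subgroup X).card_subgroup_dvd_card
          have h2 : k ≤ 1 := by
            by_contra h
            exact h361 ((by norm_num : 19 * 19 ∣ 19 ^ 2).trans ((Nat.pow_dvd_pow 19 (by omega)).trans h1))
          have h3 : k ≠ 0 := by
            rintro rfl
            have h4 := P.not_dvd_index
            have h5 := (P : Subgroup X).card_mul_index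
            rw [hk, pow_zero, one_mul, hX] at h5
            exact h4 (h5 ▸ hn2)
          have h4 : k = 1 := by omega
          rw [hk, h4, pow_one]
        have hcent : ∀ g ∈ (P : Subgroup X), ∀ k ∈ K, g * k = k * g := by
          intro g hg
          have hg19 : g ^ 19 = 1 := by
            have := pow_card_eq_one' (x := (⟨g, hg⟩ : (P : Subgroup X)))
            rw [hPcard] at this
            exact congrArg Subtype.val this
          exact commute_of_sylow_lt (by norm_num) hg19 K hKd (fun q _ R => card_sylow_lt hKdvd hKd q R)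
        -- `X = P K`
        have htop : (P : Subgroup X) ⊔ K = ⊤ := by
          have h1 : ((P : Subgroup X) ⊔ K).index ∣ K.index := Subgroup.index_dvd_of_le le_sup_right
          have h2 : ((P : Subgroup X) ⊔ K).index ∣ (P : Subgroup X).index := Subgroup.index_dvd_of_le le_sup_left
          have h3 : K.index = 19 := hQ19
          rw [h3, Nat.dvd_prime (by norm_num)] at h1
          rcases h1 with h1 | h1
          · exact Subgroup.index_eq_one.1 h1
          · exfalso
            rw [h1] at h2
            exact P.not_dvd_index h2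
        refine ⟨fun a ha b => ?_⟩
        have hb : b ∈ (P : Subgroup X) ⊔ K := by rw [htop]; trivial
        obtain ⟨y, hy, z, hz, rfl⟩ := Subgroup.mem_sup_of_normal_right.1 hb
        have h1 : y * z * a * (y * z)⁻¹ = y * a * y⁻¹ := by
          have h2 : z * a = a * z := (hcent a ha z hz).symm
          rw [mul_inv_rev, mul_assoc y z a, h2]
          group
        rw [h1]
        exact mul_mem (mul_mem hy ha) (inv_mem hy)
      · have hKd : 19 ∣ Nat.card K := by
          have h1 : 19 ∣ Nat.card (X ⧸ K) * Nat.card K := by rw [← hcard, hX]; exact hn2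
          exact ((Nat.Prime.dvd_mul (by norm_num)).1 h1).resolve_left hd
        have hlt : Nat.card K < n := by
          rw [← hX, hcard]
          nlinarith
        have hle : n ≤ 175560 := Nat.le_of_dvd (by norm_num) hn1
        obtain ⟨Q⟩ : Nonempty (Sylow 19 K) := inferInstance
        have hQn : (Q : Subgroup K).Normal := ih (Nat.card K) hlt K rfl ((Dvd.intro_left _ hcard.symm).trans (hX ▸ hn1))
          hKd (fun _ => by omega) Q
        -- `P ≤ K`, and `P` is the image of `Q`
        have hQchar : (Q : Subgroup K).Characteristic := Q.characteristic_of_normal hQn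
        have hQX : ((Q : Subgroup K).map K.subtype).Normal := ConjAct.normal_of_characteristic_of_normal
        have hQp : IsPGroup 19 ((Q : Subgroup K).map K.subtype) := Q.isPGroup'.map _
        have hle2 : (Q : Subgroup K).map K.subtype ≤ (P : Subgroup X) := by
          obtain ⟨P', hP'⟩ := hQp.exists_le_sylow
          obtain ⟨g, rfl⟩ := MulAction.exists_smul_eq X P P'
          intro x hx
          have h1 : g * x * g⁻¹ ∈ (Q : Subgroup K).map K.subtype := hQX.conj_mem x hx g
          have h2 := hP' h1
          rw [Sylow.coe_subgroup_smul] at h2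
          obtain ⟨y, hy, hyx⟩ := h2
          have h3 : y = x := by
            have : g * y * g⁻¹ = g * x * g⁻¹ := hyx
            simpa using this
          exact h3 ▸ hy
        have hPK : Nat.card (P : Subgroup X) ∣ Nat.card ((Q : Subgroup K).map K.subtype) := by
          have h1 : (P : Subgroup X) ≤ K := by
            intro x hx
            have h2 : QuotientGroup.mk' K x = 1 := by
              obtain ⟨k, hk⟩ := P.isPGroup' ⟨x, hx⟩
              have h3 : x ^ 19 ^ k = 1 := congrArg Subtype.val hk
              have h4 : (QuotientGroup.mk' K x) ^ 19 ^ k = 1 := by rw [← map_pow, h3, map_one]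
              have h5 : orderOf (QuotientGroup.mk' K x) ∣ 19 ^ k := orderOf_dvd_of_pow_eq_one h4
              have h6 : orderOf (QuotientGroup.mk' K x) ∣ Nat.card (X ⧸ K) := orderOf_dvd_natCard _
              have h7 : Nat.Coprime (19 ^ k) (Nat.card (X ⧸ K)) :=
                Nat.Coprime.pow_left _ ((Nat.Prime.coprime_iff_not_dvd (by norm_num)).2 hd)
              exact orderOf_eq_one_iff.1 (Nat.eq_one_of_dvd_coprimes h7 h5 h6)
            exact (QuotientGroup.eq_one_iff x).1 h2
          have h2 : Nat.card (P : Subgroup X) = Nat.card ((P : Subgroup X).subgroupOf K) :=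
            (Nat.card_congr (Subgroup.subgroupOfEquivOfLe h1).toEquiv).symm
          have h3 : IsPGroup 19 ((P : Subgroup X).subgroupOf K) :=
            P.isPGroup'.comap_of_injective K.subtype K.subtype_injective
          rw [h2, ← Nat.card_congr ((Q : Subgroup K).equivMapOfInjective K.subtype K.subtype_injective).toEquiv]
          obtain ⟨Q', hQ'⟩ := h3.exists_le_sylow
          rw [Nat.card_congr (Q.equiv Q').toEquiv]
          exact Subgroup.card_dvd_of_le hQ'
        have heq : (Q : Subgroup K).map K.subtype = (P : Subgroup X) :=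
          Subgroup.eq_of_le_of_card_ge hle2 (Nat.le_of_dvd Nat.card_pos hPK)
        rw [← heq]
        exact hQX

end Cfsg.Agent.H555.NineteenNormal
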